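import Cfsg.Agent.Lib.OutAutRee.Unipotent
import Cfsg.Agent.Lib.Classes.PSLOut

/-!
The outer automorphism group of ²G₂(q).
-/

set_option autoImplicit false
set_option linter.unusedSectionVars false
set_option linter.style.haveILetI false

namespace CfsgLib.OutAutRee

open Cfsg.Lie
open CfsgLib.SchurMult.Ree
open scoped Pointwise

variable {K : Type*} [Field K] [Fintype K] {m : ℕ} (hK : Fintype.card K = 3 ^ (2 * m + 1))

include hK

theorem fix_borel {χ : MulAut ↥(twistedG2 K (3 ^ m))} (hU : ∀ x ∈ U₁ K m, χ x = x)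
    (hH : ∀ x ∈ H₁ K m, χ x = x) : ∀ x ∈ B₁ K m, χ x = x := by
  intro x hx
  obtain ⟨u, hu, h, hh, rfl⟩ := borel_decomp hK hx
  rw [map_mul, hU u hu, hH h hh]

/-- An automorphism fixing the unipotent part and the torus pointwise is trivial. -/
theorem eq_one_of_fix (hm : 1 ≤ m) {χ : MulAut ↥(twistedG2 K (3 ^ m))} (hU : ∀ x ∈ U₁ K m, χ x = x)
    (hH : ∀ x ∈ H₁ K m, χ x = x) : χ = 1 := by
  classical
  obtain ⟨w, hw⟩ := exists_rep hK
  have hB := fix_borel hK hU hH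
  have hwB : χ w ∉ B₁ K m := fun h => hw.notMem (by
    have e : χ w = w := χ.injective (hB _ h)
    rwa [e] at h)
  obtain ⟨u0, hu0, b, hb, e⟩ := (hw.cover (χ w)).resolve_left hwB
  have hcent : ∀ h ∈ H₁ K m, (χ w)⁻¹ * h * χ w = w⁻¹ * h * w := by
    intro h hh
    rw [← hH _ (hw.conjH h hh), map_mul, map_mul, map_inv, hH h hh]
  have hu1 : u0 = 1 := by
    refine inv_eq_one.1 (eq_one_of_normalize hK hm (inv_mem hu0) fun h hh => ?_)
    rw [inv_inv]
    refine hw.inter _ (mul_mem (mul_mem (inv_mem (U₁_le_B₁ hu0)) (H₁_le_B₁ hh)) (U₁_le_B₁ hu0)) ?_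
    rw [show w⁻¹ * (u0⁻¹ * h * u0) * w = b * ((u0 * w * b)⁻¹ * h * (u0 * w * b)) * b⁻¹ by group, ← e,
      hcent h hh]
    exact mul_mem (mul_mem hb (H₁_le_B₁ (hw.conjH h hh))) (inv_mem hb)
  rw [hu1, one_mul] at e
  have hbH : b ∈ H₁ K m := by
    obtain ⟨u, hu, k, hk, rfl⟩ := borel_decomp hK hb
    suffices u = 1 by rwa [this, one_mul]
    refine eq_one_of_normalize hK hm hu fun x hx => ?_
    have hx' : k⁻¹ * x * k ∈ H₁ K m := mul_mem (mul_mem (inv_mem hk) hx) hk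
    have h2 := hcent _ (hw.conjH' _ hx')
    rw [e] at h2
    have h3 : u * x * u⁻¹ = k⁻¹ * x * k := by
      calc u * x * u⁻¹ = (u * k) * (k⁻¹ * x * k) * (u * k)⁻¹ := by group
        _ = (u * k) * (w⁻¹ * (w * (k⁻¹ * x * k) * w⁻¹) * w) * (u * k)⁻¹ := by group
        _ = (u * k) * ((w * (u * k))⁻¹ * (w * (k⁻¹ * x * k) * w⁻¹) * (w * (u * k))) * (u * k)⁻¹ := by rw [h2]
        _ = k⁻¹ * x * k := by group
    rw [h3]
    exact hx'
  suffices hb1 : b = 1 by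
    rw [hb1, mul_one] at e
    have htop : MonoidHom.eqLocus χ.toMonoidHom (MonoidHom.id _) = ⊤ := eq_top_of_gens hK hw _ hU hH e
    exact MulEquiv.ext fun g => (htop.ge (Subgroup.mem_top g) :)
  -- move a point of the big cell
  by_contra hb1
  have hcell : ∀ u ∈ U₁ K m, u ≠ 1 → ∃ E F, ∃ b' ∈ B₁ K m, w⁻¹ * u * w = ru hK 0 E F * w * b' := by
    intro u hu hne
    obtain ⟨u', hu', b', hb', e'⟩ := (hw.cover (w⁻¹ * u * w)).resolve_left fun h => hne (hw.negU u hu h)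
    obtain ⟨t, E, F, rfl⟩ := exists_of_mem hK hu'
    refine ⟨E, F, b', hb', ?_⟩
    suffices t = 0 by subst this; exact e'
    by_contra ht
    have h2 := congrArg χ e'
    rw [map_mul, map_mul, map_mul, map_mul, map_inv, hU u hu, hU _ (ru_mem hK t E F), hB b' hb', e] at h2
    have hu2 : (ru hK t E F)⁻¹ * (b⁻¹ * ru hK t E F * b) = 1 := by
      refine hw.unique _ (mul_mem (inv_mem (ru_mem hK t E F)) ?_)
        (((w⁻¹ * b⁻¹ * w) * b' * b) * (b * b')⁻¹)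
        (mul_mem (mul_mem (mul_mem (H₁_le_B₁ (hw.conjH _ (inv_mem hbH))) hb') hb) (inv_mem (mul_mem hb hb'))) ?_
      · have := conj_mem_U₁ hK (inv_mem hb) (ru_mem hK t E F)
        rwa [inv_inv] at this
      · calc _ = (ru hK t E F)⁻¹ * (b⁻¹ * (ru hK t E F * w * b') * b) * (b * b')⁻¹ := by group
          _ = (ru hK t E F)⁻¹ * ((w * b)⁻¹ * u * (w * b)) * (b * b')⁻¹ := by rw [← e']; group
          _ = (ru hK t E F)⁻¹ * (ru hK t E F * (w * b) * b') * (b * b')⁻¹ := by rw [h2]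
          _ = w := by group
    have h4 : b⁻¹ * ru hK t E F * b = ru hK t E F := (inv_mul_eq_one.1 hu2).symm
    have h5 := act hK ⟨b⁻¹, inv_mem hbH⟩ t E F
    simp only [inv_inv, h4] at h5
    have h6 : lam (⟨b⁻¹, inv_mem hbH⟩ : ↥(H₁ K m)) = 1 :=
      mul_right_cancel₀ ht (by rw [one_mul]; exact ((ru_injective hK h5).1).symm)
    have h7 := lam_injective hK (h6.trans (map_one _).symm)
    exact hb1 (inv_eq_one.1 (congrArg Subtype.val h7))
  let v : Option (K × K) → ↥(twistedG2 K (3 ^ m)) := fun o => o.elim (ru hK 0 0 1) fun p => ru hK 1 p.1 p.2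
  have hvU : ∀ o, v o ∈ U₁ K m := by
    intro o; cases o <;> exact ru_mem hK _ _ _
  have hv1 : ∀ o, v o ≠ 1 := by
    intro o h
    cases o
    · exact one_ne_zero (ru_injective hK (h.trans (ru_zero hK).symm)).2.2
    · exact one_ne_zero (ru_injective hK (h.trans (ru_zero hK).symm)).1
  have hvinj : Function.Injective v := by
    intro a c h
    cases a <;> cases c
    · rfl
    · exact absurd (ru_injective hK h).1 zero_ne_one
    · exact absurd (ru_injective hK h).1 one_ne_zero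
    · obtain ⟨-, h1, h2⟩ := ru_injective hK h
      exact congrArg some (Prod.ext h1 h2)
  choose E F b' hb' he' using fun o => hcell (v o) (hvU o) (hv1 o)
  have hinj : Function.Injective fun o => (E o, F o) := by
    intro a c h
    obtain ⟨h1, h2⟩ := Prod.ext_iff.1 h
    refine hvinj ?_
    have h3 : (v a)⁻¹ * v c = 1 := by
      refine hw.negU _ (mul_mem (inv_mem (hvU a)) (hvU c)) ?_
      rw [show w⁻¹ * ((v a)⁻¹ * v c) * w = (w⁻¹ * v a * w)⁻¹ * (w⁻¹ * v c * w) by group, he', he',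
        show E a = E c from h1, show F a = F c from h2,
        show (ru hK 0 (E c) (F c) * w * b' a)⁻¹ * (ru hK 0 (E c) (F c) * w * b' c) = (b' a)⁻¹ * b' c by group]
      exact mul_mem (inv_mem (hb' a)) (hb' c)
    exact inv_mul_eq_one.1 h3
  have hcard := Fintype.card_le_of_injective _ hinj
  rw [Fintype.card_option] at hcard
  omega

/-- An automorphism preserving the unipotent part and the torus is a field automorphism up to the torus. -/
theorem aut_field (hm : 1 ≤ m) {φ : MulAut ↥(twistedG2 K (3 ^ m))}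
    (hU : ∀ x ∈ U₁ K m, φ x ∈ U₁ K m) (hH : ∀ x ∈ H₁ K m, φ x ∈ H₁ K m) :
    ∃ (σ : K ≃+* K) (r : ↥(twistedG2 K (3 ^ m))), φ = MulAut.conj r * fieldAut σ := by
  obtain ⟨σ, c, hc, hφ⟩ := exists_semilinear hK hU hH
  obtain ⟨r, hr⟩ := lam_surj hK hc
  refine ⟨σ, r, ?_⟩
  set χ : MulAut ↥(twistedG2 K (3 ^ m)) :=
    fieldAut σ⁻¹ * MulAut.conj (r : ↥(twistedG2 K (3 ^ m)))⁻¹ * φ with hχ
  have hχa : ∀ x, χ x = fieldAut σ⁻¹ ((r : ↥(twistedG2 K (3 ^ m)))⁻¹ * φ x *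
      (r : ↥(twistedG2 K (3 ^ m)))) := fun x => by
    rw [hχ, MulAut.mul_apply, MulAut.mul_apply, MulAut.conj_apply, inv_inv]
  have hrU : ∀ x ∈ U₁ K m, (r : ↥(twistedG2 K (3 ^ m)))⁻¹ * x * r ∈ U₁ K m := fun x hx => by
    have := conj_mem_U₁ hK (inv_mem (H₁_le_B₁ r.2)) hx
    rwa [inv_inv] at this
  have hχU : ∀ x ∈ U₁ K m, χ x ∈ U₁ K m := fun x hx => by
    rw [hχa]
    exact fieldAut_U₁ hK _ (hrU _ (hU x hx))
  have hχH : ∀ x ∈ H₁ K m, χ x ∈ H₁ K m := fun x hx => by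
    rw [hχa]
    exact fieldAut_H₁ _ (mul_mem (mul_mem (inv_mem r.2) (hH x hx)) r.2)
  have h1 : ∀ t, ∃ E F, χ (ru hK t 0 0) = ru hK t E F := by
    intro t
    obtain ⟨E, F, e⟩ := hφ t
    have h := act hK r⁻¹ (c * σ t) E F
    simp only [InvMemClass.coe_inv, inv_inv] at h
    rw [hχa, e, h, fieldAut_ru]
    have hl : lam r⁻¹ * c = 1 := by rw [← hr, ← map_mul, inv_mul_cancel, map_one]
    have ht : σ⁻¹ (lam r⁻¹ * (c * σ t)) = t := by
      rw [← mul_assoc, hl, one_mul]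
      exact σ.symm_apply_apply t
    rw [ht]
    exact ⟨_, _, rfl⟩
  have hfixH := fix_torus hK hχH h1
  have hχ1 := eq_one_of_fix hK hm (fix_unipotent hK hm hχU hfixH h1) hfixH
  calc φ = MulAut.conj (r : ↥(twistedG2 K (3 ^ m))) * fieldAut σ * χ := by
        rw [hχ, map_inv, map_inv]; group
    _ = _ := by rw [hχ1, mul_one]

omit hK in
/-- Field automorphisms modulo inner ones. -/
noncomputable def fieldOut : (K ≃+* K) →* Cfsg.Out ↥(twistedG2 K (3 ^ m)) :=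
  (QuotientGroup.mk' (Cfsg.Inn ↥(twistedG2 K (3 ^ m)))).comp fieldAut

theorem fieldOut_injective (hm : 1 ≤ m) : Function.Injective (fieldOut (K := K) (m := m)) := by
  rw [injective_iff_map_eq_one]
  intro σ hσ
  obtain ⟨g, hg⟩ := (QuotientGroup.eq_one_iff _).1 hσ
  have hg' : ∀ x, g * x * g⁻¹ = fieldAut σ x := fun x => by
    have := DFunLike.congr_fun hg x
    simpa [MulAut.conj_apply] using this
  have hgB : g ∈ B₁ K m := mem_B₁_of_conj hK fun x hx => by rw [hg']; exact fieldAut_U₁ hK σ hx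
  obtain ⟨u, hu, k, hk, rfl⟩ := borel_decomp hK hgB
  have hu1 : u = 1 := eq_one_of_normalize hK hm hu fun x hx => by
    rw [show u * x * u⁻¹ = (u * k) * (k⁻¹ * x * k) * (u * k)⁻¹ by group, hg']
    exact fieldAut_H₁ σ (mul_mem (mul_mem (inv_mem hk) hx) hk)
  subst hu1
  have key : ∀ t, σ t = lam (⟨k, hk⟩ : ↥(H₁ K m)) * t := fun t => by
    have h := hg' (ru hK t 0 0)
    rw [one_mul, fieldAut_ru] at h
    exact ((ru_injective hK ((act hK ⟨k, hk⟩ t 0 0).symm.trans h)).1).symm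
  refine RingEquiv.ext fun t => ?_
  have h1 := key 1
  rw [map_one, mul_one] at h1
  rw [key t, ← h1, one_mul]
  rfl

theorem fieldOut_surjective (hm : 1 ≤ m) : Function.Surjective (fieldOut (K := K) (m := m)) := by
  classical
  intro o
  obtain ⟨φ, rfl⟩ := QuotientGroup.mk'_surjective (Cfsg.Inn ↥(twistedG2 K (3 ^ m))) o
  haveI : Fact (Nat.Prime 3) := ⟨Nat.prime_three⟩
  obtain ⟨S, hS⟩ := CfsgLib.Twisted.exists_sylow_ree hK
  obtain ⟨g, hg⟩ := MulAction.exists_smul_eq ↥(twistedG2 K (3 ^ m)) (φ • S) S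
  set φ₁ : MulAut ↥(twistedG2 K (3 ^ m)) := MulAut.conj g * φ with hφ₁
  have hU : ∀ x, φ₁ x ∈ U₁ K m ↔ x ∈ U₁ K m := by
    have hfix : φ₁ • S = S := by
      rw [hφ₁, mul_smul]
      exact hg
    intro x
    have hS' : ∀ y, y ∈ U₁ K m ↔ y ∈ (S : Subgroup ↥(twistedG2 K (3 ^ m))) := fun y => (hS y).symm
    rw [hS', hS']
    conv_lhs => rw [← hfix, Sylow.pointwise_smul_def]
    exact Subgroup.smul_mem_pointwise_smul_iff (a := φ₁)
  have hB : ∀ x, φ₁ x ∈ B₁ K m ↔ x ∈ B₁ K m := by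
    intro x
    constructor
    · intro hx
      refine mem_B₁_of_conj hK fun v hv => (hU _).1 ?_
      rw [map_mul, map_mul, map_inv]
      exact conj_mem_U₁ hK hx ((hU v).2 hv)
    · intro hx
      refine mem_B₁_of_conj hK fun v hv => ?_
      obtain ⟨v', rfl⟩ := φ₁.surjective v
      rw [← map_inv, ← map_mul, ← map_mul, hU]
      exact conj_mem_U₁ hK hx ((hU v').1 hv)
  obtain ⟨w, hw⟩ := exists_rep hK
  obtain ⟨u, hu, b, hb, e⟩ := (hw.cover (φ₁ w)).resolve_left fun h => hw.notMem ((hB w).1 h)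
  set φ₂ : MulAut ↥(twistedG2 K (3 ^ m)) := MulAut.conj u⁻¹ * φ₁ with hφ₂
  have hφ₂a : ∀ x, φ₂ x = u⁻¹ * φ₁ x * u := fun x => by simp [hφ₂, MulAut.mul_apply]
  have hU₂ : ∀ x ∈ U₁ K m, φ₂ x ∈ U₁ K m := fun x hx => by
    rw [hφ₂a]
    exact mul_mem (mul_mem (inv_mem hu) ((hU x).2 hx)) hu
  have hB₂ : ∀ x ∈ B₁ K m, φ₂ x ∈ B₁ K m := fun x hx => by
    rw [hφ₂a]
    exact mul_mem (mul_mem (inv_mem (U₁_le_B₁ hu)) ((hB x).2 hx)) (U₁_le_B₁ hu)
  have hH₂ : ∀ x ∈ H₁ K m, φ₂ x ∈ H₁ K m := by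
    intro x hx
    refine hw.inter _ (hB₂ x (H₁_le_B₁ hx)) ?_
    have h1 := hB₂ _ (H₁_le_B₁ (hw.conjH x hx))
    rw [map_mul, map_mul, map_inv, show φ₂ w = w * (b * u) by rw [hφ₂a, e]; group] at h1
    rw [show w⁻¹ * φ₂ x * w = (b * u) * ((w * (b * u))⁻¹ * φ₂ x * (w * (b * u))) * (b * u)⁻¹ by group]
    exact mul_mem (mul_mem (mul_mem hb (U₁_le_B₁ hu)) h1) (inv_mem (mul_mem hb (U₁_le_B₁ hu)))
  obtain ⟨σ, r, hσ⟩ := aut_field hK hm hU₂ hH₂
  refine ⟨σ, ?_⟩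
  show QuotientGroup.mk' _ (fieldAut σ) = _
  have hc : ∀ k, QuotientGroup.mk' (Cfsg.Inn ↥(twistedG2 K (3 ^ m))) (MulAut.conj k) = 1 :=
    fun k => (QuotientGroup.eq_one_iff _).2 ⟨k, rfl⟩
  have h2 := congrArg (QuotientGroup.mk' (Cfsg.Inn ↥(twistedG2 K (3 ^ m)))) hσ
  rw [hφ₂, hφ₁, map_mul, map_mul, map_mul, hc, hc, hc, one_mul, one_mul, one_mul] at h2
  exact h2.symm

theorem card_out (hm : 1 ≤ m) : Nat.card (Cfsg.Out ↥(twistedG2 K (3 ^ m))) = 2 * m + 1 := by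
  have : Fact (Nat.Prime 3) := ⟨Nat.prime_three⟩
  obtain ⟨e⟩ := CfsgLib.Classes.nonempty_ringAut_equiv hK
  rw [← Nat.card_congr (Equiv.ofBijective _ ⟨fieldOut_injective hK hm, fieldOut_surjective hK hm⟩),
    Nat.card_congr e.toEquiv, Nat.card_congr Multiplicative.toAdd, Nat.card_zmod]

end CfsgLib.OutAutRee
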