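import Cfsg.Agent.Lib.SchurMult.ReeUnipotent
import Cfsg.Agent.Lib.SchurMult.ReeMult
import Cfsg.Agent.Lib.ReflectionsSpinor.ChevFieldCent

/-!
Borel subgroup, torus and field automorphisms of ²G₂(q).
-/

set_option autoImplicit false
set_option linter.unusedSectionVars false
set_option linter.style.haveILetI false

namespace CfsgLib.OutAutRee

open Cfsg.Lie
open CfsgLib.Twisted
open CfsgLib.SchurMult.Ree
open CfsgLib.Chevalley (cert_G2 xG torusHom diagonalSubgroup_eq_range)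
open CfsgLib.ReflectionsSpinor.ChevField (push push_xG push_torus)

variable {K : Type*} [Field K]

/-- The unipotent part. -/
def U₁ (K : Type*) [Field K] (m : ℕ) : Subgroup ↥(twistedG2 K (3 ^ m)) :=
  (chevG2.posUnipotent K).subgroupOf (twistedG2 K (3 ^ m))

/-- The torus. -/
def H₁ (K : Type*) [Field K] (m : ℕ) : Subgroup ↥(twistedG2 K (3 ^ m)) :=
  (chevG2.diagonalSubgroup K).subgroupOf (twistedG2 K (3 ^ m))

/-- The Borel part. -/
def B₁ (K : Type*) [Field K] (m : ℕ) : Subgroup ↥(twistedG2 K (3 ^ m)) :=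
  (chevG2.borelSubgroup K).subgroupOf (twistedG2 K (3 ^ m))

theorem mem_U₁ {m : ℕ} {x : ↥(twistedG2 K (3 ^ m))} :
    x ∈ U₁ K m ↔ (x : GL chevG2.Idx K) ∈ chevG2.posUnipotent K := Iff.rfl

theorem mem_H₁ {m : ℕ} {x : ↥(twistedG2 K (3 ^ m))} :
    x ∈ H₁ K m ↔ (x : GL chevG2.Idx K) ∈ chevG2.diagonalSubgroup K := Iff.rfl

theorem mem_B₁ {m : ℕ} {x : ↥(twistedG2 K (3 ^ m))} :
    x ∈ B₁ K m ↔ (x : GL chevG2.Idx K) ∈ chevG2.borelSubgroup K := Iff.rfl

theorem U₁_le_B₁ {m : ℕ} : U₁ K m ≤ B₁ K m := fun _ hx => Subgroup.mem_sup_left hx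

theorem H₁_le_B₁ {m : ℕ} : H₁ K m ≤ B₁ K m := fun _ hx => Subgroup.mem_sup_right hx

variable [Fintype K] {m : ℕ} (hK : Fintype.card K = 3 ^ (2 * m + 1))

/-- The scaling factor of a torus element. -/
noncomputable def lam : ↥(H₁ K m) →* K :=
  let f : ↥(H₁ K m) →* ↥(chevG2.diagonalSubgroup K ⊓ twistedG2 K (3 ^ m)) :=
    { toFun := fun h => ⟨(h : ↥(twistedG2 K (3 ^ m))), h.2, (h : ↥(twistedG2 K (3 ^ m))).2⟩
      map_one' := rfl
      map_mul' := fun _ _ => rfl }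
  ({ toFun := sg m
     map_one' := sg_one
     map_mul' := sg_mul m } : K →* K).comp (reeTorusVal.comp f)

include hK

theorem act (h : ↥(H₁ K m)) (t E F : K) :
    (h : ↥(twistedG2 K (3 ^ m))) * ru hK t E F * (h : ↥(twistedG2 K (3 ^ m)))⁻¹ =
      ru hK (lam h * t) (lam h * sg m (lam h) * E) (lam h ^ 2 * sg m (lam h) * F) :=
  torus_act hK ⟨(h : ↥(twistedG2 K (3 ^ m))), h.2, (h : ↥(twistedG2 K (3 ^ m))).2⟩ t E F

theorem lam_injective : Function.Injective (lam (K := K) (m := m)) := by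
  intro a b e
  have h := reeTorusVal_injective hK ((sg_bijective hK).1 e)
  exact Subtype.ext (Subtype.ext (congrArg (fun w : ↥(chevG2.diagonalSubgroup K ⊓ twistedG2 K (3 ^ m)) =>
    (w : GL chevG2.Idx K)) h))

theorem lam_surj {l : K} (hl : l ≠ 0) : ∃ h : ↥(H₁ K m), lam h = l := by
  obtain ⟨a, ha⟩ := (sg_bijective hK).2 l
  have ha0 : a ≠ 0 := fun e => hl (by rw [← ha, e, sg_zero])
  obtain ⟨g, hg⟩ := reeTorusVal_surj hK ha0
  exact ⟨⟨⟨g, g.2.2⟩, g.2.1⟩, by rw [← ha, ← hg]; rfl⟩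

theorem lam_ne_zero (h : ↥(H₁ K m)) : lam h ≠ 0 := fun e => by
  have := congrArg (lam (K := K) (m := m)) (mul_inv_cancel h)
  rw [map_mul, map_one, e, zero_mul] at this
  exact zero_ne_one this

theorem ru_mem (t E F : K) : ru hK t E F ∈ U₁ K m := coe_ru_mem hK t E F

theorem exists_of_mem {x : ↥(twistedG2 K (3 ^ m))} (hx : x ∈ U₁ K m) : ∃ t E F, x = ru hK t E F :=
  exists_ru hK hx

theorem U₁_inf_H₁ {x : ↥(twistedG2 K (3 ^ m))} (hu : x ∈ U₁ K m) (hh : x ∈ H₁ K m) : x = 1 :=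
  Subtype.ext (CfsgLib.Chevalley.eq_one_of_mem_pos_diagonal fullReeG2 hu hh)

theorem conj_mem_U₁ {b x : ↥(twistedG2 K (3 ^ m))} (hb : b ∈ B₁ K m) (hx : x ∈ U₁ K m) :
    b * x * b⁻¹ ∈ U₁ K m := by
  exact IsRankOne.conj_pos fullReeG2 hb hx

theorem borel_decomp {b : ↥(twistedG2 K (3 ^ m))} (hb : b ∈ B₁ K m) :
    ∃ u ∈ U₁ K m, ∃ h ∈ H₁ K m, b = u * h := by
  obtain ⟨s, hS⟩ := exists_isRankOne_ree hK
  obtain ⟨u, t, hu, huU, ht, htH, e⟩ := hS.borel _ b.2 hb
  exact ⟨⟨u, hu⟩, huU, ⟨t, ht⟩, htH, Subtype.ext e⟩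

theorem mem_B₁_of_conj {g : ↥(twistedG2 K (3 ^ m))} (h : ∀ x ∈ U₁ K m, g * x * g⁻¹ ∈ U₁ K m) :
    g ∈ B₁ K m := by
  obtain ⟨s, hS⟩ := exists_isRankOne_ree hK
  refine hS.mem_borel_of_conj_mem g.2 (coe_ru_mem hK 1 0 0) (fun e => one_ne_zero (α := K) ?_)
    (h _ (ru_mem hK 1 0 0))
  exact (ru_injective hK ((Subtype.ext e : ru hK 1 0 0 = 1).trans (ru_zero hK).symm)).1

/-- An element of the unipotent part normalising the torus is trivial. -/
theorem eq_one_of_normalize (hm : 1 ≤ m) {u : ↥(twistedG2 K (3 ^ m))} (hu : u ∈ U₁ K m)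
    (h : ∀ x ∈ H₁ K m, u * x * u⁻¹ ∈ H₁ K m) : u = 1 := by
  obtain ⟨t, E, F, rfl⟩ := exists_of_mem hK hu
  have key : ∀ x : ↥(H₁ K m), ru hK (lam x * t) (lam x * sg m (lam x) * E)
      (lam x ^ 2 * sg m (lam x) * F) = ru hK t E F := by
    intro x
    rw [← act]
    set y : ↥(twistedG2 K (3 ^ m)) := (x : ↥(twistedG2 K (3 ^ m)))
    set v := ru hK t E F
    have h1 : v * (y * v⁻¹ * y⁻¹) = 1 := by
      refine U₁_inf_H₁ hK (mul_mem hu (conj_mem_U₁ hK (H₁_le_B₁ x.2) (inv_mem hu))) ?_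
      rw [show v * (y * v⁻¹ * y⁻¹) = (v * y * v⁻¹) * y⁻¹ by group]
      exact mul_mem (h _ x.2) (inv_mem x.2)
    calc y * v * y⁻¹ = (v * (y * v⁻¹ * y⁻¹))⁻¹ * v := by group
      _ = v := by rw [h1, inv_one, one_mul]
  have h3 : (3 : K) = 0 := (data hK hm).three
  have hdbl : ∀ a : K, -a = a → a = 0 := fun a e => by linear_combination a * h3 + e
  obtain ⟨x, hx⟩ := lam_surj hK (neg_ne_zero.2 (one_ne_zero (α := K)))
  have e1 := key x
  rw [hx, sg_neg hK, sg_one] at e1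
  obtain ⟨ht, -, hF⟩ := ru_injective hK e1
  obtain ⟨l, hl⟩ := (data hK hm).ne_E
  obtain ⟨y, hy⟩ := lam_surj hK l.ne_zero
  obtain ⟨-, hE, -⟩ := ru_injective hK (key y)
  rw [hy] at hE
  have ht0 : t = 0 := hdbl t (by linear_combination ht)
  have hF0 : F = 0 := hdbl F (by linear_combination hF)
  have hE0 : E = 0 := by
    by_contra hne
    exact hl (mul_right_cancel₀ hne (by rw [one_mul]; exact hE))
  rw [ht0, hE0, hF0, ru_zero]

omit hK in
/-- A Weyl representative. -/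
structure IsRep (w : ↥(twistedG2 K (3 ^ m))) : Prop where
  notMem : w ∉ B₁ K m
  conjH : ∀ x ∈ H₁ K m, w⁻¹ * x * w ∈ H₁ K m
  conjH' : ∀ x ∈ H₁ K m, w * x * w⁻¹ ∈ H₁ K m
  sq : w * w ∈ B₁ K m
  negU : ∀ u ∈ U₁ K m, w⁻¹ * u * w ∈ B₁ K m → u = 1
  cover : ∀ g, g ∈ B₁ K m ∨ ∃ u ∈ U₁ K m, ∃ b ∈ B₁ K m, g = u * w * b
  unique : ∀ u ∈ U₁ K m, ∀ b ∈ B₁ K m, u * w * b = w → u = 1
  inter : ∀ x ∈ B₁ K m, w⁻¹ * x * w ∈ B₁ K m → x ∈ H₁ K m

theorem exists_rep : ∃ w : ↥(twistedG2 K (3 ^ m)), IsRep w := by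
  obtain ⟨s, hS⟩ := exists_isRankOne_ree hK
  refine ⟨⟨s, hS.mem⟩, ?_⟩
  have hH : ∀ x, x ∈ chevG2.diagonalSubgroup K → s⁻¹ * x * s ∈ chevG2.diagonalSubgroup K := fun x hx => by
    have := CfsgLib.Chevalley.monomial_conj_diagonal fullReeG2 (inv_mem hS.monomial) hx
    rwa [inv_inv] at this
  have hneg : ∀ u : ↥(twistedG2 K (3 ^ m)), u ∈ U₁ K m →
      (⟨s, hS.mem⟩ : ↥(twistedG2 K (3 ^ m)))⁻¹ * u * ⟨s, hS.mem⟩ ∈ B₁ K m → u = 1 := fun u hu hb =>
    Subtype.ext (hS.eq_one_of_conj_mem hu (one_mem _) (by rw [mul_one]; exact hb))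
  exact
    { notMem := hS.notMem
      conjH := fun x hx => hH _ hx
      conjH' := fun x hx => CfsgLib.Chevalley.monomial_conj_diagonal fullReeG2 hS.monomial hx
      sq := by
        show (s * s : GL chevG2.Idx K) ∈ chevG2.borelSubgroup K
        by_contra hB
        obtain ⟨u, b, -, huU, -, hbB, e⟩ := (hS.cover _ (mul_mem hS.mem hS.mem)).resolve_left hB
        have h := CfsgLib.Chevalley.monomial_unique fullReeG2 hS.monomial (mul_mem hS.monomial hS.monomial)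
          (Subgroup.mem_sup_left huU) hbB e.symm
        rw [inv_mul_cancel_left] at h
        exact hS.notMem (Subgroup.mem_sup_right h)
      negU := hneg
      cover := fun g => by
        rcases hS.cover g g.2 with h | ⟨u, b, hu, huU, hb, hbB, e⟩
        · exact Or.inl h
        · exact Or.inr ⟨⟨u, hu⟩, huU, ⟨b, hb⟩, hbB, Subtype.ext e⟩
      unique := fun u hu b hb e => by
        refine hneg u hu ?_
        rw [show (⟨s, hS.mem⟩ : ↥(twistedG2 K (3 ^ m)))⁻¹ * u * ⟨s, hS.mem⟩ =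
          (⟨s, hS.mem⟩ : ↥(twistedG2 K (3 ^ m)))⁻¹ * (u * ⟨s, hS.mem⟩ * b) * b⁻¹ by group, e,
          inv_mul_cancel, one_mul]
        exact inv_mem hb
      inter := fun x hx hb => by
        obtain ⟨u, hu, t, ht, rfl⟩ := borel_decomp hK hx
        have : u = 1 := Subtype.ext (hS.eq_one_of_conj_mem hu ht hb)
        rw [this, one_mul]
        exact ht }

theorem eq_top_of_gens {w : ↥(twistedG2 K (3 ^ m))} (hw : IsRep w)
    (S : Subgroup ↥(twistedG2 K (3 ^ m))) (hU : U₁ K m ≤ S) (hH : H₁ K m ≤ S) (hwS : w ∈ S) : S = ⊤ := by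
  have hB : ∀ b ∈ B₁ K m, b ∈ S := fun b hb => by
    obtain ⟨u, hu, h, hh, rfl⟩ := borel_decomp hK hb
    exact mul_mem (hU hu) (hH hh)
  refine eq_top_iff.2 fun g _ => ?_
  rcases hw.cover g with h | ⟨u, hu, b, hb, rfl⟩
  · exact hB g h
  · exact mul_mem (mul_mem (hU hu) hwS) (hB b hb)

omit [Fintype K] hK in
theorem push_wordG (σ : K →+* K) (w : List (ℕ × K)) :
    push chevG2 σ (wordG cert_G2 w) = wordG cert_G2 (w.map fun p => (p.1, σ p.2)) := by
  simp only [wordG, map_list_prod, List.map_map]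
  congr 1
  refine List.map_congr_left fun p _ => ?_
  simp [Function.comp, push_xG cert_G2]

omit [Fintype K] hK in
theorem map_reeWordU (σ : K →+* K) (e : ℕ) (t u v : K) :
    (reeWordU e t u v).map (fun p => (p.1, σ p.2)) = reeWordU e (σ t) (σ u) (σ v) := by
  simp [reeWordU, map_pow, map_add]

omit [Fintype K] hK in
theorem map_reeWordV (σ : K →+* K) (e : ℕ) (t u v : K) :
    (reeWordV e t u v).map (fun p => (p.1, σ p.2)) = reeWordV e (σ t) (σ u) (σ v) := by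
  rw [reeWordV, reeWordV, ← map_reeWordU]
  simp [ChevalleyDatum.negWord, List.map_map, Function.comp_def]

omit [Fintype K] hK in
theorem push_mem (σ : K →+* K) {g : GL chevG2.Idx K} (hg : g ∈ twistedG2 K (3 ^ m)) :
    push chevG2 σ g ∈ twistedG2 K (3 ^ m) := by
  have hle : twistedG2 K (3 ^ m) ≤ (twistedG2 K (3 ^ m)).comap (push chevG2 σ) := by
    rw [twistedG2, ChevalleyDatum.genSubgroup, Subgroup.closure_le]
    rintro g ⟨w, ⟨t, u, v, hw⟩, hg⟩
    have hg' : g = wordG cert_G2 w := Units.ext (by rw [hg, coe_wordG])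
    rw [hg', SetLike.mem_coe, Subgroup.mem_comap, push_wordG]
    rcases hw with rfl | rfl
    · rw [map_reeWordU]; exact wordG_mem_gen cert_G2 ⟨_, _, _, Or.inl rfl⟩
    · rw [map_reeWordV]; exact wordG_mem_gen cert_G2 ⟨_, _, _, Or.inr rfl⟩
  exact hle hg

omit [Fintype K] hK in
theorem push_push (σ τ : K →+* K) (g : GL chevG2.Idx K) :
    push chevG2 σ (push chevG2 τ g) = push chevG2 (σ.comp τ) g := by
  apply Units.ext
  show ((Units.val g).map τ).map σ = (Units.val g).map (σ.comp τ)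
  rw [Matrix.map_map]
  rfl

omit [Fintype K] hK in
theorem push_id (g : GL chevG2.Idx K) : push chevG2 (RingHom.id K) g = g := by
  apply Units.ext
  show (Units.val g).map (RingHom.id K) = Units.val g
  ext i j
  rfl

omit [Fintype K] hK in
/-- A field automorphism as an automorphism of the group. -/
noncomputable def fieldAut : (K ≃+* K) →* MulAut ↥(twistedG2 K (3 ^ m)) where
  toFun σ :=
    { toFun := fun g => ⟨push chevG2 (σ : K →+* K) g, push_mem _ g.2⟩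
      invFun := fun g => ⟨push chevG2 (σ.symm : K →+* K) g, push_mem _ g.2⟩
      left_inv := fun g => Subtype.ext (by
        show push chevG2 _ (push chevG2 _ (g : GL chevG2.Idx K)) = _
        rw [push_push, show ((σ.symm : K →+* K).comp (σ : K →+* K)) = RingHom.id K from
          RingHom.ext fun x => σ.symm_apply_apply x, push_id])
      right_inv := fun g => Subtype.ext (by
        show push chevG2 _ (push chevG2 _ (g : GL chevG2.Idx K)) = _
        rw [push_push, show ((σ : K →+* K).comp (σ.symm : K →+* K)) = RingHom.id K from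
          RingHom.ext fun x => σ.apply_symm_apply x, push_id])
      map_mul' := fun g k => Subtype.ext (map_mul (push chevG2 (σ : K →+* K)) _ _) }
  map_one' := MulEquiv.ext fun g => Subtype.ext (by
    show push chevG2 _ (g : GL chevG2.Idx K) = (g : GL chevG2.Idx K)
    exact push_id _)
  map_mul' σ τ := MulEquiv.ext fun g => Subtype.ext (by
    show push chevG2 _ (g : GL chevG2.Idx K) = push chevG2 _ (push chevG2 _ (g : GL chevG2.Idx K))
    rw [push_push]
    rfl)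

theorem fieldAut_ru (σ : K ≃+* K) (t E F : K) :
    fieldAut σ (ru hK t E F) = ru hK (σ t) (σ E) (σ F) := by
  refine Subtype.ext ?_
  show push chevG2 (σ : K →+* K) (wordG cert_G2 _) = wordG cert_G2 _
  rw [push_wordG, map_reeWordU]
  simp [sg, map_sub, map_mul, map_pow]

omit [Fintype K] hK in
theorem push_diagonal (σ : K →+* K) {g : GL chevG2.Idx K} (hg : g ∈ chevG2.diagonalSubgroup K) :
    push chevG2 σ g ∈ chevG2.diagonalSubgroup K := by
  rw [diagonalSubgroup_eq_range fullReeG2] at hg ⊢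
  obtain ⟨c, rfl⟩ := hg
  exact ⟨_, (push_torus σ c).symm⟩

theorem fieldAut_U₁ (σ : K ≃+* K) {x : ↥(twistedG2 K (3 ^ m))} (hx : x ∈ U₁ K m) :
    fieldAut σ x ∈ U₁ K m := by
  obtain ⟨t, E, F, rfl⟩ := exists_of_mem hK hx
  rw [fieldAut_ru]
  exact ru_mem hK _ _ _

omit [Fintype K] hK in
theorem fieldAut_H₁ (σ : K ≃+* K) {x : ↥(twistedG2 K (3 ^ m))} (hx : x ∈ H₁ K m) :
    fieldAut σ x ∈ H₁ K m :=
  push_diagonal (σ : K →+* K) hx

end CfsgLib.OutAutRee
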