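import Cfsg.Agent.Lib.OutAutRee.Structure

/-!
Automorphisms preserving the unipotent part and the torus of ²G₂(q).
-/

set_option autoImplicit false
set_option linter.unusedSectionVars false
set_option linter.style.haveILetI false

namespace CfsgLib.OutAutRee

open Cfsg.Lie
open CfsgLib.SchurMult.Ree

variable {K : Type*} [Field K] [Fintype K] {m : ℕ} (hK : Fintype.card K = 3 ^ (2 * m + 1))

include hK

theorem three_eq_zero : (3 : K) = 0 := by
  have h30 : ((3 : ℕ) : K) = 0 :=
    CfsgLib.Twisted.natCast_char_zero (p := 3) (k := 2 * m + 1) (by omega) hK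
  simpa using h30

theorem eq_zero_of_neg_eq {a : K} (e : -a = a) : a = 0 := by
  linear_combination e + a * three_eq_zero hK

theorem exists_sg_ne (hm : 1 ≤ m) : ∃ x : K, sg m x ≠ x := by
  classical
  by_contra hall
  push Not at hall
  have hcube : ∀ x : K, x ^ 3 = x := fun x => by rw [← sg_sg hK, hall, hall]
  have hsub : (Finset.univ : Finset K) ⊆ {0, 1, -1} := fun x _ => by
    have h := hcube x
    have h2 : x * ((x - 1) * (x + 1)) = 0 := by linear_combination h
    rcases mul_eq_zero.1 h2 with e | e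
    · simp [e]
    rcases mul_eq_zero.1 e with e | e
    · simp [sub_eq_zero.1 e]
    · simp [eq_neg_of_add_eq_zero_left e]
  have h1 := Finset.card_le_card hsub
  have h3 : ({0, 1, -1} : Finset K).card ≤ 3 := by
    calc _ ≤ _ + 1 := Finset.card_insert_le _ _
      _ ≤ _ + 1 + 1 := Nat.add_le_add_right (Finset.card_insert_le _ _) 1
      _ = 3 := by simp
  rw [Finset.card_univ, hK] at h1
  have : 3 ^ 3 ≤ 3 ^ (2 * m + 1) := Nat.pow_le_pow_right (by norm_num) (by omega)
  omega

theorem ru_cube (t E F : K) : ru hK t E F ^ 3 = ru hK 0 0 (-(t ^ 2 * sg m t)) := by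
  have h3 := three_eq_zero hK
  rw [pow_succ, pow_two, ru_mul, ru_mul, sg_add hK]
  congr 1
  · linear_combination t * h3
  · linear_combination (E + t * sg m t) * h3
  · linear_combination (F - t * E + t ^ 2 * sg m t) * h3

theorem t_eq_zero_iff (t E F : K) : ru hK t E F ^ 3 = 1 ↔ t = 0 := by
  rw [ru_cube]
  constructor
  · intro h
    obtain ⟨-, -, h2⟩ := ru_injective hK (h.trans (ru_zero hK).symm)
    rcases mul_eq_zero.1 (neg_eq_zero.1 h2) with e | e
    · exact eq_zero_of_pow_eq_zero e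
    · by_contra ht
      exact sg_ne_zero m ht e
  · rintro rfl
    simpa [sg_zero] using ru_zero hK

theorem ru_split (t E F : K) : ru hK t E F = ru hK t 0 0 * ru hK 0 E F := by
  rw [ru_mul]
  congr 1 <;> simp

/-- An automorphism fixing the first coordinate and mapping the torus to itself fixes the torus. -/
theorem fix_torus {χ : MulAut ↥(twistedG2 K (3 ^ m))}
    (hH : ∀ x ∈ H₁ K m, χ x ∈ H₁ K m) (h1 : ∀ t, ∃ E F, χ (ru hK t 0 0) = ru hK t E F) :
    ∀ x ∈ H₁ K m, χ x = x := by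
  intro x hx
  have e : lam (⟨χ x, hH x hx⟩ : ↥(H₁ K m)) = lam (⟨x, hx⟩ : ↥(H₁ K m)) := by
    obtain ⟨E, F, he⟩ := h1 1
    obtain ⟨E', F', he'⟩ := h1 (lam (⟨x, hx⟩ : ↥(H₁ K m)))
    have h := congrArg χ (act hK ⟨x, hx⟩ 1 0 0)
    simp only [map_mul, map_inv, he, mul_one, mul_zero, he'] at h
    rw [show χ x = ((⟨χ x, hH x hx⟩ : ↥(H₁ K m)) : ↥(twistedG2 K (3 ^ m))) from rfl, act] at h
    simpa using (ru_injective hK h).1
  exact congrArg Subtype.val (lam_injective hK e)

/-- An automorphism fixing the first coordinate and the torus fixes the unipotent part. -/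
theorem fix_unipotent (hm : 1 ≤ m) {χ : MulAut ↥(twistedG2 K (3 ^ m))}
    (hU : ∀ x ∈ U₁ K m, χ x ∈ U₁ K m)
    (hH : ∀ x ∈ H₁ K m, χ x = x) (h1 : ∀ t, ∃ E F, χ (ru hK t 0 0) = ru hK t E F) :
    ∀ x ∈ U₁ K m, χ x = x := by
  have h3 := three_eq_zero hK
  choose β γ hβ using h1
  obtain ⟨y, hy⟩ := lam_surj hK (neg_ne_zero.2 (one_ne_zero (α := K)))
  have ha : ∀ E, ∃ A, χ (ru hK 0 E 0) = ru hK 0 A 0 := by
    intro E
    obtain ⟨t, A, B, e⟩ := exists_of_mem hK (hU _ (ru_mem hK 0 E 0))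
    have ht : t = 0 := (t_eq_zero_iff hK t A B).1 (by
      rw [← e, ← map_pow, (t_eq_zero_iff hK 0 E 0).2 rfl, map_one])
    subst ht
    have h := congrArg χ (act hK y 0 E 0)
    simp only [map_mul, map_inv, hH _ y.2, hy, sg_neg hK, sg_one, neg_mul_neg, one_mul, mul_zero, e] at h
    rw [act, hy, sg_neg hK, sg_one] at h
    have hB := (ru_injective hK h).2.2
    exact ⟨A, by rw [e, eq_zero_of_neg_eq hK (show -B = B by linear_combination hB)]⟩
  choose a ha using ha
  have hswap : ∀ t E, χ (ru hK 0 0 (E * t)) = ru hK 0 0 (a E * t) := by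
    intro t E
    have e0 : ru hK t 0 0 * ru hK 0 E 0 = ru hK 0 E 0 * ru hK t 0 0 * ru hK 0 0 (E * t) := by
      simp [ru_mul, sg_zero]
    have h := congrArg χ e0
    simp only [map_mul, ha, hβ] at h
    refine mul_left_cancel (a := ru hK 0 (a E) 0 * ru hK t (β t) (γ t)) ?_
    rw [← h]
    simp only [ru_mul, sg_zero]
    congr 1 <;> ring
  have hlin : ∀ E, a E = a 1 * E := by
    intro E
    have h := hswap 1 E
    rw [mul_one, mul_one] at h
    have h' := hswap E 1
    rw [one_mul] at h'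
    exact (ru_injective hK (h.symm.trans h')).2.2
  have hF : ∀ F, χ (ru hK 0 0 F) = ru hK 0 0 (a 1 * F) := fun F => by
    have h := hswap F 1
    rwa [one_mul] at h
  have hscale : ∀ l : K, β l = l * sg m l * β 1 ∧ γ l = l ^ 2 * sg m l * γ 1 := by
    intro l
    rcases eq_or_ne l 0 with rfl | hl
    · have h := hβ 0
      rw [ru_zero, map_one] at h
      obtain ⟨-, e1, e2⟩ := ru_injective hK ((ru_zero hK).trans h)
      simp [← e1, ← e2]
    obtain ⟨x, hx⟩ := lam_surj hK hl
    have h := congrArg χ (act hK x 1 0 0)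
    simp only [map_mul, map_inv, hH _ x.2, hx, mul_one, mul_zero, hβ] at h
    rw [act, hx] at h
    obtain ⟨-, e1, e2⟩ := ru_injective hK h
    exact ⟨e1.symm, e2.symm⟩
  have hsum : ∀ t t', β t + β t' + t' * sg m t = β (t + t') + a 1 * (t' * sg m t) ∧
      γ t + γ t' + t' ^ 2 * sg m t - β t * t' = γ (t + t') + a 1 * (t' ^ 2 * sg m t) := by
    intro t t'
    have e0 : ru hK t 0 0 * ru hK t' 0 0 =
        ru hK (t + t') 0 0 * (ru hK 0 (t' * sg m t) 0 * ru hK 0 0 (t' ^ 2 * sg m t)) := by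
      simp only [ru_mul, sg_zero]
      congr 1 <;> ring
    have h := congrArg χ e0
    rw [map_mul, map_mul, map_mul, ha, hβ, hβ, hβ, hF] at h
    simp only [ru_mul, sg_zero] at h
    obtain ⟨-, e1, e2⟩ := ru_injective hK h
    rw [hlin] at e1
    exact ⟨by linear_combination e1, by linear_combination e2⟩
  obtain ⟨x, hx⟩ := exists_sg_ne hK hm
  have hx1 : x - 1 ≠ 0 := sub_ne_zero.2 fun e => hx (by rw [e, sg_one])
  have hc : β 1 = 0 := by
    have e11 := (hsum 1 1).1
    have ex := (hsum 1 x).1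
    rw [(hscale (1 + 1)).1, sg_add hK, sg_one] at e11
    rw [(hscale x).1, (hscale (1 + x)).1, sg_add hK, sg_one] at ex
    have : (sg m x - x) * β 1 = 0 := by
      linear_combination -ex + x * e11
    exact (mul_eq_zero.1 this).resolve_left (sub_ne_zero.2 hx)
  have hβ0 : ∀ t, β t = 0 := fun t => by rw [(hscale t).1, hc, mul_zero]
  have hA : a 1 = 1 := by
    have e11 := (hsum 1 1).1
    rw [hβ0, hβ0, sg_one] at e11
    linear_combination -e11
  have hd : γ 1 = 0 := by
    have e := (hsum 1 x).2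
    rw [hA, hβ0, (hscale x).2, (hscale (1 + x)).2, sg_add hK, sg_one] at e
    have : ((sg m x - x) * (x - 1)) * γ 1 = 0 := by
      linear_combination e + γ 1 * (x + x * sg m x) * h3 - γ 1 * (0 : K) * h3
    exact (mul_eq_zero.1 this).resolve_left (mul_ne_zero (sub_ne_zero.2 hx) hx1)
  intro z hz
  obtain ⟨t, E, F, rfl⟩ := exists_of_mem hK hz
  rw [show ru hK t E F = ru hK t 0 0 * (ru hK 0 E 0 * ru hK 0 0 F) by
    simp only [ru_mul, sg_zero]; congr 1 <;> ring]
  rw [map_mul, map_mul, hβ, ha, hF, hlin, hβ0, (hscale t).2, hd, hA, one_mul, one_mul, mul_zero]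

/-- An automorphism preserving the unipotent part and the torus is semilinear on the first coordinate. -/
theorem exists_semilinear {φ : MulAut ↥(twistedG2 K (3 ^ m))}
    (hU : ∀ x ∈ U₁ K m, φ x ∈ U₁ K m) (hH : ∀ x ∈ H₁ K m, φ x ∈ H₁ K m) :
    ∃ (σ : K ≃+* K) (c : K), c ≠ 0 ∧ ∀ t, ∃ E F, φ (ru hK t 0 0) = ru hK (c * σ t) E F := by
  have hu : ∀ t, ∃ a E F, φ (ru hK t 0 0) = ru hK a E F := fun t => exists_of_mem hK (hU _ (ru_mem hK t 0 0))
  choose α β γ hα using hu
  have hadd : ∀ t t', α (t + t') = α t + α t' := by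
    intro t t'
    obtain ⟨a, A, B, e⟩ := exists_of_mem hK (hU _ (ru_mem hK 0 (t' * sg m t) (t' ^ 2 * sg m t)))
    have ha : a = 0 := (t_eq_zero_iff hK a A B).1 (by
      rw [← e, ← map_pow, (t_eq_zero_iff hK _ _ _).2 rfl, map_one])
    have e0 : ru hK t 0 0 * ru hK t' 0 0 =
        ru hK (t + t') 0 0 * ru hK 0 (t' * sg m t) (t' ^ 2 * sg m t) := by
      simp only [ru_mul, sg_zero]
      congr 1 <;> ring
    have h := congrArg φ e0
    rw [map_mul, map_mul, hα, hα, hα, e, ru_mul, ru_mul] at h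
    have := (ru_injective hK h).1
    rw [ha, add_zero] at this
    exact this.symm
  have hne : ∀ t, α t = 0 → t = 0 := by
    intro t ht
    refine (t_eq_zero_iff hK t 0 0).1 (φ.injective ?_)
    rw [map_one, map_pow, hα, (t_eq_zero_iff hK _ _ _).2 ht]
  have hsemi : ∀ (x : ↥(H₁ K m)) (t : K), α (lam x * t) = lam (⟨φ x, hH _ x.2⟩ : ↥(H₁ K m)) * α t := by
    intro x t
    have h := congrArg φ (act hK x t 0 0)
    simp only [map_mul, map_inv, mul_zero, hα] at h
    rw [show φ x = ((⟨φ x, hH _ x.2⟩ : ↥(H₁ K m)) : ↥(twistedG2 K (3 ^ m))) from rfl, act] at h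
    exact ((ru_injective hK h).1).symm
  have h1 : α 1 ≠ 0 := fun e => one_ne_zero (hne 1 e)
  have h0 : α 0 = 0 := by simpa using hadd 0 0
  let gh : K →+* K :=
    { toFun := fun t => α t / α 1
      map_one' := div_self h1
      map_zero' := by simp [h0]
      map_add' := fun a b => by simp [hadd, add_div]
      map_mul' := fun a b => by
        rcases eq_or_ne a 0 with rfl | ha
        · simp [h0]
        obtain ⟨x, rfl⟩ := lam_surj hK ha
        rw [hsemi x b, show α (lam x) = lam (⟨φ x, hH _ x.2⟩ : ↥(H₁ K m)) * α 1 by rw [← hsemi, mul_one],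
          mul_div_cancel_right₀ _ h1, mul_div_assoc] }
  refine ⟨RingEquiv.ofBijective gh (Finite.injective_iff_bijective.1 gh.injective), α 1, h1, fun t => ?_⟩
  refine ⟨β t, γ t, ?_⟩
  rw [hα]
  congr 1
  show α t = α 1 * (α t / α 1)
  rw [mul_div_cancel₀ _ h1]

end CfsgLib.OutAutRee
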